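import Cfsg.Agent.Lib.Fusion2.NormConstr2

/-!
# Normal subsystems of a constrained group: elements of `Aut_E(Q₀)` are induced by `K₂`
-/

set_option autoImplicit false
set_option linter.unusedSectionVars false
set_option linter.style.haveILetI false

namespace Cfsg.Agent.Lib.Fusion2.NormConstr

open Cfsg Cfsg.FusionSystem Cfsg.Agent.Lib.Fusion

variable {G : Type*} [Group G] [Finite G] {p : ℕ} [hp : Fact p.Prime]
variable {S : Sylow p G} {T Q : Subgroup G} {E : FusionSystem T}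

namespace NC

variable (h : NC S T Q E)
include h

/-- A `p'`-element acting on `T` as an element of `E`, with the commutator condition of a normal subsystem,
acts trivially on `Q / Q₀`. -/
theorem mem_K1_of_coprime {b : G} (hbN : b ∈ Subgroup.normalizer (T : Set G)) (hem : EM E T b)
    (hbo : (orderOf b).Coprime p)
    (hbc : ∀ c ∈ centralizerIn (S : Subgroup G) T, c⁻¹ * (b * c * b⁻¹) ∈ T ⊓ Subgroup.centralizer (T : Set G)) :
    b ∈ h.K1 := by
  intro q hq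
  obtain ⟨y, hyd⟩ : ∃ y, y = q⁻¹ * b * q * b⁻¹ := ⟨_, rfl⟩
  rw [← hyd]
  have hyQ : y ∈ Q := by
    rw [hyd]
    have e : q⁻¹ * b * q * b⁻¹ = q⁻¹ * (b * q * b⁻¹) := by group
    rw [e]
    exact Q.mul_mem (Q.inv_mem hq) (h.Qn.conj_mem q hq b)
  have hqN : q ∈ Subgroup.normalizer (T : Set G) := h.S_le (h.QS hq)
  have hqiN : q⁻¹ ∈ Subgroup.normalizer (T : Set G) := Subgroup.inv_mem _ hqN
  have h1 : EM E T (q⁻¹ * b * q⁻¹⁻¹) := by
    have := h.inv hem hqiN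
    rwa [cj_of_mem_normalizer hqiN] at this
  have h2 : EM E T b⁻¹ := by
    have := EM.inv hem
    rwa [cj_of_mem_normalizer hbN] at this
  have hyE : EM E T y := by
    have := EM.comp h2 h1 (fun x hx => conj_mem_of_normalizer (Subgroup.inv_mem _ hbN) (by simpa using hx) |> fun hz => by
      simpa using hz)
    have e : q⁻¹ * b * q⁻¹⁻¹ * b⁻¹ = y := by
      rw [hyd]
      group
    rwa [e] at this
  have hyN : y ∈ Subgroup.normalizer (T : Set G) := h.S_le (h.QS hyQ)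
  obtain ⟨k, hk⟩ := h.pow_of_S (h.QS hyQ)
  obtain ⟨t, ht, hty⟩ := h.toNS.exists_T_of_pow h.T_fullyAutomized hyN hyN hyE hk
  -- `c = t⁻¹ y` centralizes `T`
  have hcC : t⁻¹ * y ∈ Subgroup.centralizer (T : Set G) := by
    rw [Subgroup.mem_centralizer_iff]
    intro r hr
    have h3 := hty r hr
    calc r * (t⁻¹ * y) = t⁻¹ * (t * r * t⁻¹) * y := by group
      _ = t⁻¹ * (y * r * y⁻¹) * y := by rw [h3]
      _ = t⁻¹ * y * r := by group
  have hcS : t⁻¹ * y ∈ centralizerIn (S : Subgroup G) T :=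
    ⟨Subgroup.mul_mem _ (Subgroup.inv_mem _ (h.hTS ht)) (h.QS hyQ), hcC⟩
  obtain ⟨c, hcd⟩ : ∃ c, c = t⁻¹ * y := ⟨_, rfl⟩
  rw [← hcd] at hcC hcS
  have hyc : y = t * c := by
    rw [hcd]
    group
  have hz := hbc c hcS
  obtain ⟨z, hzd⟩ : ∃ z, z = c⁻¹ * (b * c * b⁻¹) := ⟨_, rfl⟩
  rw [← hzd] at hz
  have hbcb : b * c * b⁻¹ = c * z := by
    rw [hzd]
    group
  -- the commutator of `y` with `b` lies in `Q₀`
  have hw : t⁻¹ * (b * t * b⁻¹) ∈ T := T.mul_mem (T.inv_mem ht) (conj_mem_of_normalizer hbN ht)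
  have hcw : c⁻¹ * (t⁻¹ * (b * t * b⁻¹)) * c = t⁻¹ * (b * t * b⁻¹) := by
    have h3 := Subgroup.mem_centralizer_iff.1 hcC _ hw
    calc c⁻¹ * (t⁻¹ * (b * t * b⁻¹)) * c = c⁻¹ * ((t⁻¹ * (b * t * b⁻¹)) * c) := by group
      _ = c⁻¹ * (c * (t⁻¹ * (b * t * b⁻¹))) := by rw [h3]
      _ = _ := by group
  have hcommT : y⁻¹ * (b * y * b⁻¹) ∈ T := by
    have e : y⁻¹ * (b * y * b⁻¹) = (c⁻¹ * (t⁻¹ * (b * t * b⁻¹)) * c) * z := by
      have e1 : b * y * b⁻¹ = (b * t * b⁻¹) * (b * c * b⁻¹) := by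
        rw [hyc]
        group
      rw [e1, hbcb, hyc]
      group
    rw [e, hcw]
    exact T.mul_mem hw hz.1
  have hcommQ : y⁻¹ * (b * y * b⁻¹) ∈ Q := Q.mul_mem (Q.inv_mem hyQ) (h.Qn.conj_mem y hyQ b)
  -- pass to the quotient
  haveI hN := h.Q0_normal
  let π := QuotientGroup.mk' (Q ⊓ T)
  have hπ : π (y⁻¹ * (b * y * b⁻¹)) = 1 := (QuotientGroup.eq_one_iff _).2 ⟨hcommQ, hcommT⟩
  have hπ1 : π b * π y = π y * π b := by
    have e : y⁻¹ * (b * y * b⁻¹) = y⁻¹ * b * y * b⁻¹ := by group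
    rw [e, map_mul, map_mul, map_mul, map_inv, map_inv] at hπ
    have h3 : (π y)⁻¹ * π b * π y = π b := by
      have := congrArg (· * π b) hπ
      simpa using this
    calc π b * π y = π y * ((π y)⁻¹ * π b * π y) := by group
      _ = π y * π b := by rw [h3]
  have hπ2 : π b * π q = π q * π y * π b := by
    have e : b * q = q * y * b := by
      rw [hyd]
      group
    rw [← map_mul, e, map_mul, map_mul]
  have hit : ∀ n : ℕ, π b ^ n * π q = π q * π y ^ n * π b ^ n := by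
    intro n
    induction n with
    | zero => simp
    | succ n ih =>
      have hc' : Commute (π b) (π y) := hπ1
      have hcn : π b * π y ^ n = π y ^ n * π b := (hc'.pow_right n).eq
      calc π b ^ (n + 1) * π q = π b * (π b ^ n * π q) := by rw [pow_succ']; group
        _ = π b * (π q * π y ^ n * π b ^ n) := by rw [ih]
        _ = (π b * π q) * π y ^ n * π b ^ n := by group
        _ = π q * π y * π b * π y ^ n * π b ^ n := by rw [hπ2]
        _ = π q * π y * (π b * π y ^ n) * π b ^ n := by group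
        _ = π q * π y * (π y ^ n * π b) * π b ^ n := by rw [hcn]
        _ = π q * (π y * π y ^ n) * (π b * π b ^ n) := by group
        _ = π q * π y ^ (n + 1) * π b ^ (n + 1) := by rw [pow_succ', pow_succ']
  have h5 := hit (orderOf b)
  have h6 : π b ^ orderOf b = 1 := by
    rw [← map_pow, pow_orderOf_eq_one, map_one]
  rw [h6, one_mul, mul_one] at h5
  have h7 : π y ^ orderOf b = 1 := by
    have := h5.symm
    simpa using this
  have h8 : π y ^ p ^ k = 1 := by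
    rw [← map_pow, hk, map_one]
  have h9 := eq_one_of_two_pows hbo h7 h8
  exact (QuotientGroup.eq_one_iff _).1 h9

/-- Every element of `Aut_E(T)` is induced by an element of `K₂`. -/
theorem exists_K2_of_T {n : G} (hnN : n ∈ Subgroup.normalizer (T : Set G)) (hem : EM E T n) :
    ∃ k ∈ h.K2, ∀ x ∈ T, k * x * k⁻¹ = n * x * n⁻¹ := by
  obtain ⟨g, hg1, hg2⟩ := h.n4 hnN hem
  have hgN : g ∈ Subgroup.normalizer (T : Set G) := mem_normalizer_of_conj (fun x hx => by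
    rw [hg1 x hx]
    exact conj_mem_of_normalizer hnN hx)
  have hgE : EM E T g := EM.congr hem (fun x hx => (hg1 x hx).symm)
  have hpowN : ∀ m : ℕ, g ^ m ∈ Subgroup.normalizer (T : Set G) := fun m => Subgroup.pow_mem _ hgN m
  have hpowE : ∀ m : ℕ, EM E T (g ^ m) := by
    intro m
    induction m with
    | zero => simpa using em_of_mem (E := E) (R := T) le_rfl T.one_mem
    | succ m ih =>
      rw [pow_succ']
      exact EM.comp ih hgE (fun x hx => conj_mem_of_normalizer (hpowN m) hx)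
  have hZconj : ∀ {a z : G}, a ∈ Subgroup.normalizer (T : Set G) → z ∈ T ⊓ Subgroup.centralizer (T : Set G) →
      a * z * a⁻¹ ∈ T ⊓ Subgroup.centralizer (T : Set G) := by
    intro a z ha hz
    refine ⟨conj_mem_of_normalizer ha hz.1, ?_⟩
    show a * z * a⁻¹ ∈ Subgroup.centralizer (T : Set G)
    rw [Subgroup.mem_centralizer_iff]
    intro r hr
    have h1 := Subgroup.mem_centralizer_iff.1 hz.2 _ (conj_mem_of_normalizer (Subgroup.inv_mem _ ha) hr)
    have e1 : r * (a * z * a⁻¹) = a * ((a⁻¹ * r * a⁻¹⁻¹) * z) * a⁻¹ := by group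
    have e2 : a * z * a⁻¹ * r = a * (z * (a⁻¹ * r * a⁻¹⁻¹)) * a⁻¹ := by group
    rw [e1, e2, h1]
  have hpowC : ∀ m : ℕ, ∀ c ∈ centralizerIn (S : Subgroup G) T,
      c⁻¹ * (g ^ m * c * (g ^ m)⁻¹) ∈ T ⊓ Subgroup.centralizer (T : Set G) := by
    intro m
    induction m with
    | zero =>
      intro c _
      simpa using Subgroup.one_mem _
    | succ m ih =>
      intro c hc
      have h1 := hg2 c hc
      have h2 := hZconj hgN (ih c hc)
      have e : c⁻¹ * (g ^ (m + 1) * c * (g ^ (m + 1))⁻¹) =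
          (c⁻¹ * (g * c * g⁻¹)) * (g * (c⁻¹ * (g ^ m * c * (g ^ m)⁻¹)) * g⁻¹) := by
        rw [pow_succ']
        group
      rw [e]
      exact Subgroup.mul_mem _ h1 h2
  obtain ⟨i, j, e, hij, hi, hj⟩ := exists_split (p := p) g
  obtain ⟨t, ht, hta⟩ := h.toNS.exists_T_of_pow h.T_fullyAutomized (hpowN i) (hpowN i) (hpowE i) hi
  have hbK1 : g ^ j ∈ h.K1 := h.mem_K1_of_coprime (hpowN j) (hpowE j) hj (hpowC j)
  have hbG0 : g ^ j ∈ h.G0 := EM.mono (hpowE j) inf_le_right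
  refine ⟨t * g ^ j, h.K2.mul_mem (h.T_le_K2 ht) ⟨hbG0, hbK1⟩, fun x hx => ?_⟩
  have h1 := hta _ (conj_mem_of_normalizer (hpowN j) hx)
  rw [← hg1 x hx]
  have e1 : t * g ^ j * x * (t * g ^ j)⁻¹ = t * (g ^ j * x * (g ^ j)⁻¹) * t⁻¹ := by group
  rw [e1, ← h1]
  have e2 : g ^ i * (g ^ j * x * (g ^ j)⁻¹) * (g ^ i)⁻¹ = (g ^ i * g ^ j) * x * (g ^ i * g ^ j)⁻¹ := by group
  rw [e2, hij]

/-- Extension of elements of `G₀` from `Q₀`. -/
theorem exists_ext {x : G} (hx : x ∈ h.G0) {R : Subgroup G} (hRT : R ≤ T) (hQR : Q ⊓ T ≤ R)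
    (hv : ∀ r ∈ R, x * r * x⁻¹ ∈ T) : ∃ g, EM E R g ∧ ∀ r ∈ Q ⊓ T, g * r * g⁻¹ = x * r * x⁻¹ := by
  have hi : IsImage (fun y => x * y * x⁻¹) (Q ⊓ T) (Q ⊓ T) := by
    intro y
    constructor
    · intro hy
      refine ⟨x⁻¹ * y * x⁻¹⁻¹, h.Q0_normal.conj_mem y hy x⁻¹, ?_⟩
      show x * (x⁻¹ * y * x⁻¹⁻¹) * x⁻¹ = y
      group
    · rintro ⟨z, hz, rfl⟩
      exact h.Q0_normal.conj_mem z hz x
  have hx' : IsMapOn E (Q ⊓ T) (fun y => x * y * x⁻¹) := hx
  obtain ⟨f, hf, hfv⟩ := IsMapOn.exists_ext_set h.Q0_receptive hx' hi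
  have hle : R ≤ extSet T T (Q ⊓ T) (fun y => x * y * x⁻¹) := by
    intro r hr
    refine ⟨hRT hr, h.Q0_le_normalizer r, x * r * x⁻¹, hv r hr, fun y _ => ?_⟩
    show x * (r * y * r⁻¹) * x⁻¹ = x * r * x⁻¹ * (x * y * x⁻¹) * (x * r * x⁻¹)⁻¹
    group
  obtain ⟨φ, hφ, hφv⟩ := IsMapOn.mono hf hle
  obtain ⟨g, hg⟩ := h.conj hφ
  refine ⟨g, ⟨φ, hφ, hg⟩, fun r hr => ?_⟩
  have h1 := hg ⟨r, hQR hr⟩
  rw [hφv ⟨r, hQR hr⟩, hfv r hr] at h1
  exact h1.symm

/-- **(★)** `G₀ = K₂ C₀`. -/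
theorem exists_K2_mul {x : G} (hx : x ∈ h.G0) : ∃ k ∈ h.K2, k⁻¹ * x ∈ h.C0 := by
  haveI hK := h.K2_normal
  have hsyl : SylowIn p ((S : Subgroup G) ⊓ h.K2) h.K2 := sylowIn_inf S h.K2
  have hU : IsPGroup p (cj x T) := isPGroup_cj h.isPGroup_T x
  have hUK : cj x T ≤ h.K2 := by
    rintro _ ⟨t, ht, rfl⟩
    exact hK.conj_mem t (h.T_le_K2 ht) x
  obtain ⟨c, hc, hcU⟩ := SylowIn.exists_conj hsyl hU hUK
  have hnT : ∀ t ∈ T, (c * x) * t * (c * x)⁻¹ ∈ T := by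
    intro t ht
    refine h.sc _ _ ht ?_
    have h1 : c * (x * t * x⁻¹) * c⁻¹ ∈ cj c (cj x T) := conj_mem_cj (conj_mem_cj ht)
    have e : (c * x) * t * (c * x)⁻¹ = c * (x * t * x⁻¹) * c⁻¹ := by group
    rw [e]
    exact (hcU h1).1
  have hnG : c * x ∈ h.G0 := h.G0.mul_mem hc.1 hx
  obtain ⟨g, hgE, hgv⟩ := h.exists_ext hnG le_rfl inf_le_right hnT
  have hgN : g ∈ Subgroup.normalizer (T : Set G) := mem_normalizer_of_conj (fun y hy => hgE.mem hy)
  obtain ⟨k', hk', hk'v⟩ := h.exists_K2_of_T hgN hgE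
  refine ⟨c⁻¹ * k', h.K2.mul_mem (h.K2.inv_mem hc) hk', (h.mem_C0).2 (fun y hy => ?_)⟩
  have h1 := hk'v y hy.2
  rw [hgv y hy] at h1
  have e : (c⁻¹ * k')⁻¹ * x = k'⁻¹ * (c * x) := by group
  rw [e]
  calc y * (k'⁻¹ * (c * x)) = k'⁻¹ * (k' * y * k'⁻¹) * (c * x) := by group
    _ = k'⁻¹ * ((c * x) * y * (c * x)⁻¹) * (c * x) := by rw [h1]
    _ = k'⁻¹ * (c * x) * y := by group

end NC

end Cfsg.Agent.Lib.Fusion2.NormConstr
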