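import Cfsg.Agent.Lib.Fusion2.NormConstr3

/-!
# Normal subsystems of a constrained group: the subgroup `H`
-/

set_option autoImplicit false
set_option linter.unusedSectionVars false
set_option linter.style.haveILetI false

namespace Cfsg.Agent.Lib.Fusion2.NormConstr

open Cfsg Cfsg.FusionSystem Cfsg.Agent.Lib.Fusion

variable {G : Type*} [Group G] [Finite G] {p : ℕ} [hp : Fact p.Prime]

/-- A subgroup `A` of `K` with a Sylow subgroup inside `B` lies in `B`, if `K / B` is a `p`-group. -/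
theorem le_of_sylowIn_le {A B K T₁ : Subgroup G} (hAK : A ≤ K) (hB : ∀ g ∈ K, ∀ x ∈ B, g * x * g⁻¹ ∈ B)
    (hpow : ∀ x ∈ K, ∃ k : ℕ, x ^ p ^ k ∈ B) (hT₁B : T₁ ≤ B) (hT₁ : SylowIn p T₁ A) : A ≤ B := by
  haveI hN : (B.subgroupOf A).Normal := ⟨fun x hx g => by
    rw [Subgroup.mem_subgroupOf] at hx ⊢
    exact hB g (hAK g.2) x hx⟩
  have hq : IsPGroup p (A ⧸ B.subgroupOf A) := by
    intro a
    obtain ⟨x, rfl⟩ := QuotientGroup.mk_surjective a
    obtain ⟨k, hk⟩ := hpow x (hAK x.2)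
    refine ⟨k, ?_⟩
    rw [← QuotientGroup.mk_pow, QuotientGroup.eq_one_iff, Subgroup.mem_subgroupOf]
    exact hk
  obtain ⟨n, hn⟩ := IsPGroup.iff_card.1 hq
  obtain ⟨R, hR⟩ := hT₁
  have hle : T₁.subgroupOf A ≤ B.subgroupOf A := fun x hx => hT₁B hx
  have h1 : (B.subgroupOf A).index ∣ (T₁.subgroupOf A).index := Subgroup.index_dvd_of_le hle
  have h2 : ¬ p ∣ (T₁.subgroupOf A).index := by
    rw [← hR]
    exact R.not_dvd_index
  have h3 : (B.subgroupOf A).index = p ^ n := by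
    rw [Subgroup.index_eq_card, hn]
  have hn0 : n = 0 := by
    by_contra hne
    apply h2
    refine dvd_trans ?_ h1
    rw [h3]
    exact dvd_pow_self p hne
  rw [hn0, pow_zero, Subgroup.index_eq_one] at h3
  intro x hx
  have : (⟨x, hx⟩ : A) ∈ B.subgroupOf A := by
    rw [h3]
    trivial
  exact this

theorem SylowIn.cj_sylowIn {T H : Subgroup G} (hTH : T ≤ H) (hT : IsPGroup p T) (h : SylowIn p T H) (g : G) :
    SylowIn p (cj g T) (cj g H) := by
  refine sylowIn_of_max (Subgroup.map_mono hTH) (isPGroup_cj hT g) (fun U hU hUp => ?_)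
  have h1 : cj g⁻¹ U ≤ H := by
    rintro _ ⟨x, hx, rfl⟩
    have := mem_cj.1 (hU hx)
    simpa using this
  have h2 := h.max hTH (isPGroup_cj hUp g⁻¹) h1
  rw [card_cj] at h2
  rwa [card_cj]

variable {S : Sylow p G} {T Q : Subgroup G} {E : FusionSystem T}

namespace IsH

variable {h : NC S T Q E} {H : Subgroup G} (hH : IsH h H)
include hH

theorem mem_T_of {x : G} (hx : x ∈ H) (hS : x ∈ (S : Subgroup G)) : x ∈ T := by
  rw [← hH.inf]
  exact ⟨hx, hS, hH.le hx⟩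

theorem T_le : T ≤ H := by
  intro x hx
  rw [← hH.inf] at hx
  exact hx.1

theorem sylowIn : SylowIn p T H := by
  haveI hK := h.K2_normal
  have hsyl : SylowIn p ((S : Subgroup G) ⊓ h.K2) h.K2 := sylowIn_inf S h.K2
  refine sylowIn_of_max hH.T_le h.isPGroup_T (fun U hUH hU => ?_)
  obtain ⟨c, hc, hcU⟩ := SylowIn.exists_conj hsyl hU (hUH.trans hH.le)
  have h1 : cj c U ≤ T := by
    rintro _ ⟨x, hx, rfl⟩
    exact hH.mem_T_of (hH.conj c hc x (hUH hx)) (hcU (conj_mem_cj hx)).1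
  rw [← card_cj c U]
  exact Subgroup.card_le_of_le h1

theorem normal : H.Normal := by
  haveI hK := h.K2_normal
  have hsyl : SylowIn p ((S : Subgroup G) ⊓ h.K2) h.K2 := sylowIn_inf S h.K2
  have hT : ∀ g : G, cj g T ≤ H := by
    intro g
    have hU : IsPGroup p (cj g T) := isPGroup_cj h.isPGroup_T g
    have hUK : cj g T ≤ h.K2 := by
      rintro _ ⟨t, ht, rfl⟩
      exact hK.conj_mem t (h.T_le_K2 ht) g
    obtain ⟨c, hc, hcU⟩ := SylowIn.exists_conj hsyl hU hUK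
    rintro _ ⟨t, ht, rfl⟩
    have h1 : c * (g * t * g⁻¹) * c⁻¹ ∈ (S : Subgroup G) ⊓ h.K2 := hcU (conj_mem_cj (conj_mem_cj ht))
    have e : c * (g * t * g⁻¹) * c⁻¹ = (c * g) * t * (c * g)⁻¹ := by group
    have h2 : (c * g) * t * (c * g)⁻¹ ∈ T := h.sc _ _ ht (by
      rw [← e]
      exact h1.1)
    rw [← e] at h2
    have h3 := hH.conj c⁻¹ (h.K2.inv_mem hc) _ (hH.T_le h2)
    have e2 : c⁻¹ * (c * (g * t * g⁻¹) * c⁻¹) * c⁻¹⁻¹ = g * t * g⁻¹ := by group
    rw [e2] at h3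
    exact h3
  have hle : ∀ g : G, cj g H ≤ H := by
    intro g
    refine le_of_sylowIn_le (K := h.K2) (T₁ := cj g T) ?_ hH.conj hH.pow (hT g)
      (SylowIn.cj_sylowIn hH.T_le h.isPGroup_T hH.sylowIn g)
    rintro _ ⟨x, hx, rfl⟩
    exact hK.conj_mem x (hH.le hx) g
  exact ⟨fun x hx g => hle g (conj_mem_cj hx)⟩

theorem inf_C0 {x : G} (hx : x ∈ H) (hc : x ∈ h.C0) : x ∈ Q ⊓ T := by
  have hxK := hH.le hx
  have hxQ : x ∈ Q := h.D_le ⟨hxK.2, hc⟩
  exact ⟨hxQ, hH.mem_T_of hx (h.QS hxQ)⟩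

theorem exists_mul_of_G0 {x : G} (hx : x ∈ h.G0) : ∃ y ∈ H, ∃ w ∈ h.C0, x = y * w := by
  obtain ⟨k, hk, hkx⟩ := h.exists_K2_mul hx
  obtain ⟨u, hu, huk⟩ := hH.ext k hk
  obtain ⟨t, ht, d, hd, rfl⟩ := h.exists_of_mem_P hu
  refine ⟨k * (t * d)⁻¹ * t, H.mul_mem huk (hH.T_le ht), d * (k⁻¹ * x), h.C0.mul_mem hd.2 hkx, ?_⟩
  group

theorem comm_mem {y w : G} (hy : y ∈ H) (hw : w ∈ h.C0) : y⁻¹ * (w * y * w⁻¹) ∈ Q ⊓ T := by
  haveI hn := hH.normal
  have hnC := h.C0_normal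
  refine hH.inf_C0 (H.mul_mem (H.inv_mem hy) (hn.conj_mem y hy w)) ?_
  have h1 := hnC.conj_mem w hw y⁻¹
  have e : y⁻¹ * (w * y * w⁻¹) = (y⁻¹ * w * y⁻¹⁻¹) * w⁻¹ := by group
  rw [e]
  exact h.C0.mul_mem h1 (h.C0.inv_mem hw)

omit hH in
/-- The elements normalizing `R` and acting on it as elements of `H`. -/
def MR (hn : H.Normal) (R : Subgroup G) : Subgroup G where
  carrier := {g | g ∈ Subgroup.normalizer (R : Set G) ∧ ∃ y ∈ H, ∀ r ∈ R, g * r * g⁻¹ = y * r * y⁻¹}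
  mul_mem' := by
    rintro a b ⟨ha, y, hy, hyv⟩ ⟨hb, z, hz, hzv⟩
    refine ⟨Subgroup.mul_mem _ ha hb, y * z, H.mul_mem hy hz, fun r hr => ?_⟩
    have e1 : a * b * r * (a * b)⁻¹ = a * (b * r * b⁻¹) * a⁻¹ := by group
    rw [e1, hyv _ (conj_mem_of_normalizer hb hr), hzv r hr]
    group
  one_mem' := ⟨Subgroup.one_mem _, 1, H.one_mem, fun r _ => rfl⟩
  inv_mem' := by
    rintro a ⟨ha, y, hy, hyv⟩
    refine ⟨Subgroup.inv_mem _ ha, y⁻¹, H.inv_mem hy, fun r hr => ?_⟩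
    have h1 := hyv _ (conj_mem_of_normalizer (Subgroup.inv_mem _ ha) hr)
    have e1 : a * (a⁻¹ * r * a⁻¹⁻¹) * a⁻¹ = r := by group
    rw [e1] at h1
    have e2 : y⁻¹ * r * y⁻¹⁻¹ = y⁻¹ * (y * (a⁻¹ * r * a⁻¹⁻¹) * y⁻¹) * y⁻¹⁻¹ := by rw [← h1]
    rw [e2]
    group

omit hH in
theorem MR_conj (hn : H.Normal) {R : Subgroup G} {g x : G} (hg : g ∈ Subgroup.normalizer (R : Set G))
    (hx : x ∈ MR hn R) : g * x * g⁻¹ ∈ MR hn R := by
  obtain ⟨hxN, y, hy, hyv⟩ := hx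
  refine ⟨Subgroup.mul_mem _ (Subgroup.mul_mem _ hg hxN) (Subgroup.inv_mem _ hg), g * y * g⁻¹, hn.conj_mem y hy g,
    fun r hr => ?_⟩
  have h1 := hyv _ (conj_mem_of_normalizer (Subgroup.inv_mem _ hg) hr)
  have e1 : g * x * g⁻¹ * r * (g * x * g⁻¹)⁻¹ = g * (x * (g⁻¹ * r * g⁻¹⁻¹) * x⁻¹) * g⁻¹ := by group
  rw [e1, h1]
  group

/-- Elements of `Aut_E(R)`, for `R ≥ Q₀` fully automized, are induced by `H`. -/
theorem aut_induced {R : Subgroup G} (hQR : Q ⊓ T ≤ R) (hfa : E.IsFullyAutomized p R) {g : G}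
    (hgN : g ∈ Subgroup.normalizer (R : Set G)) (hgE : EM E R g) :
    ∃ y ∈ H, ∀ r ∈ R, g * r * g⁻¹ = y * r * y⁻¹ := by
  have hRT : R ≤ T := hfa.1
  haveI hn := hH.normal
  have hpowN : ∀ m : ℕ, g ^ m ∈ Subgroup.normalizer (R : Set G) := fun m => Subgroup.pow_mem _ hgN m
  have hpowE : ∀ m : ℕ, EM E R (g ^ m) := by
    intro m
    induction m with
    | zero => simpa using em_of_mem (E := E) (R := R) hRT T.one_mem
    | succ m ih =>
      rw [pow_succ']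
      exact EM.comp ih hgE (fun x hx => conj_mem_of_normalizer (hpowN m) hx)
  obtain ⟨i, j, e, hij, hi, hj⟩ := exists_split (p := p) g
  -- the `p`-part
  have ha : g ^ i ∈ MR hn R := by
    obtain ⟨b, hb, -, t, ht, hbv⟩ := h.toNS.exists_conj_T_of_pow hfa (hpowN i) (hpowE i) hi
    have h1 : b * g ^ i * b⁻¹ ∈ MR hn R :=
      ⟨Subgroup.mul_mem _ (Subgroup.mul_mem _ hb (hpowN i)) (Subgroup.inv_mem _ hb), t, hH.T_le ht, hbv⟩
    have h2 := MR_conj hn (Subgroup.inv_mem _ hb) h1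
    have e1 : b⁻¹ * (b * g ^ i * b⁻¹) * b⁻¹⁻¹ = g ^ i := by group
    rwa [e1] at h2
  -- the `p'`-part
  have hb : g ^ j ∈ MR hn R := by
    have hbG : g ^ j ∈ h.G0 := EM.mono (hpowE j) hQR
    obtain ⟨y, hy, w, hw, hbe⟩ := hH.exists_mul_of_G0 hbG
    have hwR : ∀ r ∈ R, r⁻¹ * (w * r * w⁻¹) ∈ Q ⊓ T := fun r hr => hH.comm_mem (hH.T_le (hRT hr)) hw
    have hwN : w ∈ Subgroup.normalizer (R : Set G) := mem_normalizer_of_conj (fun r hr => by
      have h1 := R.mul_mem hr (hQR (hwR r hr))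
      have e1 : r * (r⁻¹ * (w * r * w⁻¹)) = w * r * w⁻¹ := by group
      rwa [e1] at h1)
    have hyN : y ∈ Subgroup.normalizer (R : Set G) := by
      have h1 := Subgroup.mul_mem _ (hpowN j) (Subgroup.inv_mem _ hwN)
      have e1 : g ^ j * w⁻¹ = y := by
        rw [hbe]
        group
      rwa [e1] at h1
    have hyM : y ∈ MR hn R := ⟨hyN, y, hy, fun _ _ => rfl⟩
    -- a power of `w` centralizes `R`
    have hQ0p : IsPGroup p (Q ⊓ T : Subgroup G) := h.Qp.to_le inf_le_left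
    obtain ⟨m, hm⟩ := IsPGroup.iff_card.1 hQ0p
    have hwC : w ^ p ^ m ∈ MR hn R := by
      refine ⟨Subgroup.pow_mem _ hwN _, 1, H.one_mem, fun r hr => ?_⟩
      have hz := hwR r hr
      obtain ⟨z, hzd⟩ : ∃ z, z = r⁻¹ * (w * r * w⁻¹) := ⟨_, rfl⟩
      rw [← hzd] at hz
      have hwr : w * r = r * z * w := by
        rw [hzd]
        group
      have hcomm : z * w = w * z := (h.mem_C0).1 hw z hz
      have hit : ∀ n : ℕ, w ^ n * r = r * z ^ n * w ^ n := by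
        intro n
        induction n with
        | zero => simp
        | succ n ih =>
          have hc' : Commute w z := hcomm.symm
          have hcn : w * z ^ n = z ^ n * w := (hc'.pow_right n).eq
          calc w ^ (n + 1) * r = w * (w ^ n * r) := by rw [pow_succ']; group
            _ = w * (r * z ^ n * w ^ n) := by rw [ih]
            _ = (w * r) * z ^ n * w ^ n := by group
            _ = r * z * w * z ^ n * w ^ n := by rw [hwr]
            _ = r * z * (w * z ^ n) * w ^ n := by group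
            _ = r * z * (z ^ n * w) * w ^ n := by rw [hcn]
            _ = r * (z * z ^ n) * (w * w ^ n) := by group
            _ = r * z ^ (n + 1) * w ^ (n + 1) := by rw [pow_succ', pow_succ']
      have h1 := hit (p ^ m)
      have hz1 : z ^ p ^ m = 1 := by
        rw [← hm]
        have := pow_card_eq_one' (G := (Q ⊓ T : Subgroup G)) (x := ⟨z, hz⟩)
        exact congrArg Subtype.val this
      rw [hz1, mul_one] at h1
      rw [h1]
      simp
    have hpw : ∀ n : ℕ, ∃ a ∈ MR hn R, (g ^ j) ^ n = a * w ^ n := by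
      intro n
      induction n with
      | zero => exact ⟨1, Subgroup.one_mem _, by simp⟩
      | succ n ih =>
        obtain ⟨a, haM, hae⟩ := ih
        refine ⟨a * (w ^ n * y * (w ^ n)⁻¹), Subgroup.mul_mem _ haM (MR_conj hn (Subgroup.pow_mem _ hwN n) hyM), ?_⟩
        rw [pow_succ, hae, hbe, pow_succ]
        group
    obtain ⟨a, haM, hae⟩ := hpw (p ^ m)
    have h5 : (g ^ j) ^ p ^ m ∈ MR hn R := by
      rw [hae]
      exact Subgroup.mul_mem _ haM hwC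
    exact mem_of_pow_mem hj h5
  have hg : g ∈ MR hn R := by
    rw [← hij]
    exact Subgroup.mul_mem _ ha hb
  exact hg.2

end IsH

namespace NC

variable (h : NC S T Q E)
include h

/-- Essential subgroups of `E` contain `Q₀`. -/
theorem le_of_essential {R : Subgroup G} (hR : E.IsEssential p R) : Q ⊓ T ≤ R := by
  have hrad := isRadical_of_essential h.isPGroup_T hR
  have hc := hR.1
  have hRT : R ≤ T := hc.1
  by_contra hne
  have hnn := h.Q0_normal
  have hlt : R < (Q ⊓ T) ⊔ R := by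
    refine lt_of_le_of_ne le_sup_right (fun he => hne ?_)
    rw [he]
    exact le_sup_left
  have hWT : (Q ⊓ T) ⊔ R ≤ T := sup_le inf_le_right hRT
  obtain ⟨g, hgN, hgR⟩ := exists_mem_normalizerIn_not_mem (h.isPGroup_T.to_le hWT) hlt
  obtain ⟨q, hq, r, hr, hqr⟩ := Subgroup.mem_sup_of_normal_left.1 hgN.1
  have hqN : q ∈ Subgroup.normalizer (R : Set G) := by
    have h1 := Subgroup.mul_mem _ hgN.2 (Subgroup.inv_mem _ (Subgroup.le_normalizer hr))
    have e1 : g * r⁻¹ = q := by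
      rw [← hqr]
      group
    rwa [e1] at h1
  have hqR : q ∉ R := fun hqR => hgR (by
    rw [← hqr]
    exact R.mul_mem hqR hr)
  -- the automorphisms induced by `Q₀`
  have hYle : autInducedBy (Q ⊓ T) R ≤ autInducedBy T R := by
    intro α hα
    obtain ⟨u, hu, huv⟩ := mem_autInducedBy_iff.1 hα
    exact mem_autInducedBy_iff.2 ⟨u, hu.2, huv⟩
  have hYE : autInducedBy (Q ⊓ T) R ≤ E.autGroup R := hYle.trans (autInducedBy_le_autGroup hRT)
  have hYp : IsPGroup p (autInducedBy (Q ⊓ T) R) := (isPGroup_autInducedBy h.isPGroup_T hRT).to_le hYle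
  have hYO : autInducedBy (Q ⊓ T) R ≤ opAut E p R := le_opAut hYE hYp (fun β hβ α hα => by
    obtain ⟨u, hu, huv⟩ := mem_autInducedBy_iff.1 hα
    have hβI : IsIso E β := (mem_autGroup_iff hRT).1 hβ
    obtain ⟨b, hb⟩ := h.conj hβI
    have hb' : ∀ x : R, ((β x : R) : G) = b * (x : G) * b⁻¹ := hb
    refine mem_autInducedBy_iff.2 ⟨b * u * b⁻¹, hnn.conj_mem u hu b, fun x => ?_⟩
    have h2 : ((β * α * β⁻¹) x : R) = β (α (β⁻¹ x)) := rfl
    have h4 : ((β⁻¹ x : R) : G) = b⁻¹ * x * b := by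
      have h5 := hb' (β⁻¹ x)
      have h6 : β (β⁻¹ x) = x := by simp
      rw [h6] at h5
      have h8 : b⁻¹ * (x : G) * b = b⁻¹ * (b * ((β⁻¹ x : R) : G) * b⁻¹) * b := by rw [← h5]
      rw [h8]
      group
    rw [h2, hb', huv, h4]
    group)
  have h1 : autOfNormalizer hqN ∈ Inn R := by
    have h2 : autOfNormalizer hqN ∈ autInducedBy (Q ⊓ T) R := autOfNormalizer_mem_autInducedBy hqN hq
    have h3 := hYO h2
    rw [opAut, hrad.2] at h3
    exact h3
  exact hqR (mem_of_autOfNormalizer_mem_inn (S := T) hRT (hc.2 R (isConj_refl hRT)) (g := q) ⟨hq.2, hqN⟩ h1)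

end NC

namespace IsH

variable {h : NC S T Q E} {H : Subgroup G} (hH : IsH h H)
include hH

theorem E_le {P : Subgroup G} : E.Hom P ⊆ (fusionSystemOfSubgroup H T hH.T_le).Hom P := by
  refine alperin h.isPGroup_T h.hsat _ (fun R hR α hα => ?_) P
  have hRT : R ≤ T := by
    rcases hR with rfl | hR
    · exact le_rfl
    · exact hR.1.1
  have hQR : Q ⊓ T ≤ R := by
    rcases hR with rfl | hR
    · exact inf_le_right
    · exact h.le_of_essential hR
  have hfa : E.IsFullyAutomized p R :=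
    (fullyNormalized_spec h.isPGroup_T h.hsat (fullyNormalized_of_mem R hR)).2
  have hαI : IsIso E α := (mem_autGroup_iff hRT).1 hα
  obtain ⟨g, hg⟩ := h.conj hαI
  have hg' : ∀ x : R, ((α x : R) : G) = g * (x : G) * g⁻¹ := hg
  have hgN : g ∈ Subgroup.normalizer (R : Set G) := mem_normalizer_of_conj (fun x hx => by
    rw [← hg' ⟨x, hx⟩]
    exact (α ⟨x, hx⟩).2)
  obtain ⟨y, hy, hyv⟩ := hH.aut_induced hQR hfa hgN ⟨_, hαI, hg⟩
  refine (mem_autGroup_iff hRT).2 ⟨hRT, fun x => hRT (α x).2, y, hy, fun x => ?_⟩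
  rw [← hyv x x.2, ← hg' x]
  rfl

theorem le_E {P : Subgroup G} : (fusionSystemOfSubgroup H T hH.T_le).Hom P ⊆ E.Hom P := by
  rintro φ ⟨hPT, hφT, x, hx, hv⟩
  have hxG : x ∈ h.G0 := (hH.le hx).1
  have hRT : P ⊔ (Q ⊓ T) ≤ T := sup_le hPT inf_le_right
  have hval : P ⊔ (Q ⊓ T) ≤ T.comap (MulAut.conj x).toMonoidHom := by
    refine sup_le (fun y hy => ?_) (fun y hy => ?_)
    · have := hφT ⟨y, hy⟩
      rw [hv] at this
      exact this
    · exact (h.Q0_normal.conj_mem y hy x).2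
  obtain ⟨g, hgE, hgv⟩ := h.exists_ext hxG hRT le_sup_right (fun r hr => hval hr)
  obtain ⟨φ', hφ', hφ'v⟩ := hgE
  obtain ⟨-, -, y, hy, hyv⟩ := hH.E_le hφ'
  have hyE : EM E (P ⊔ (Q ⊓ T)) y := ⟨φ', hφ', hyv⟩
  have hgy : ∀ r ∈ P ⊔ (Q ⊓ T), g * r * g⁻¹ = y * r * y⁻¹ := fun r hr => by
    have h1 := hφ'v ⟨r, hr⟩
    have h2 := hyv ⟨r, hr⟩
    exact h1.symm.trans h2
  have hzH : y⁻¹ * x ∈ H := H.mul_mem (H.inv_mem hy) hx
  have hzC : y⁻¹ * x ∈ h.C0 := (h.mem_C0).2 (fun r hr => by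
    have h1 := hgv r hr
    rw [hgy r (Subgroup.mem_sup_right hr)] at h1
    calc r * (y⁻¹ * x) = y⁻¹ * (y * r * y⁻¹) * x := by group
      _ = y⁻¹ * (x * r * x⁻¹) * x := by rw [h1]
      _ = y⁻¹ * x * r := by group)
  have hzQ := hH.inf_C0 hzH hzC
  have hzE : EM E P (y⁻¹ * x) := em_of_mem hPT hzQ.2
  have hcomp : EM E P (y * (y⁻¹ * x)) := EM.comp hzE hyE (fun r hr => by
    have hzR : y⁻¹ * x ∈ P ⊔ (Q ⊓ T) := Subgroup.mem_sup_right hzQ
    exact Subgroup.mul_mem _ (Subgroup.mul_mem _ hzR (Subgroup.mem_sup_left hr)) (Subgroup.inv_mem _ hzR))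
  have e : y * (y⁻¹ * x) = x := by group
  rw [e] at hcomp
  obtain ⟨φ₁, hφ₁, hφ₁v⟩ := hcomp
  have : φ = φ₁ := MonoidHom.ext (fun a => by rw [hv, hφ₁v])
  rw [this]
  exact hφ₁

theorem unique {H' : Subgroup G} (hTH' : T ≤ H') (hn : H'.Normal) (hsyl : SylowIn p T H')
    (hE : ∀ P : Subgroup G, E.Hom P = (fusionSystemOfSubgroup H' T hTH').Hom P) : H' = H := by
  have hem : ∀ {x : G}, x ∈ H' → EM E (Q ⊓ T) x := by
    intro x hx
    refine ⟨conjHom (Q ⊓ T) x, ?_, fun _ => rfl⟩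
    rw [hE]
    exact ⟨inf_le_right, fun y => (h.Q0_normal.conj_mem y y.2 x).2, x, hx, fun _ => rfl⟩
  have hQH' : H' ⊓ Q ≤ T := le_of_normalizes_sylowIn hTH' hsyl h.isPGroup_T (h.Qp.to_le inf_le_right) inf_le_left
    (inf_le_right.trans (h.QS.trans h.S_le))
  have hle : H' ≤ h.K2 := by
    intro x hx
    refine ⟨hem hx, fun q hq => ?_⟩
    have h1 : q⁻¹ * x * q * x⁻¹ ∈ H' ⊓ Q := by
      constructor
      · have := hn.conj_mem x hx q⁻¹
        rw [inv_inv] at this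
        exact H'.mul_mem this (H'.inv_mem hx)
      · have e : q⁻¹ * x * q * x⁻¹ = q⁻¹ * (x * q * x⁻¹) := by group
        rw [e]
        exact Q.mul_mem (Q.inv_mem hq) (h.Qn.conj_mem q hq x)
    exact ⟨h1.2, hQH' h1⟩
  have hle1 : H' ≤ H := le_of_sylowIn_le hle hH.conj hH.pow hH.T_le hsyl
  refine le_antisymm hle1 ?_
  intro x hx
  have hxE : EM E (Q ⊓ T) x := (hH.le hx).1
  obtain ⟨φ, hφ, hφv⟩ := hxE
  rw [hE] at hφ
  obtain ⟨-, -, y, hy, hyv⟩ := hφ
  have hzC : y⁻¹ * x ∈ h.C0 := (h.mem_C0).2 (fun r hr => by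
    have h1 := hφv ⟨r, hr⟩
    have h2 := hyv ⟨r, hr⟩
    have h3 : x * r * x⁻¹ = y * r * y⁻¹ := h1.symm.trans h2
    calc r * (y⁻¹ * x) = y⁻¹ * (y * r * y⁻¹) * x := by group
      _ = y⁻¹ * (x * r * x⁻¹) * x := by rw [h3]
      _ = y⁻¹ * x * r := by group)
  have hzQ := hH.inf_C0 (H.mul_mem (H.inv_mem (hle1 hy)) hx) hzC
  have := H'.mul_mem hy (hTH' hzQ.2)
  simpa using this

end IsH

/-- **Normal subsystems of a constrained group.** -/
theorem main_result (S : Sylow p G) (hG : Subgroup.centralizer ((pCore p G : Subgroup G) : Set G) ≤ pCore p G)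
    (T : Subgroup G) (hTS : T ≤ (S : Subgroup G)) (E : FusionSystem T)
    (hE : E.IsNormalIn (groupFusionSystem (S : Subgroup G)) p) :
    ∃ H : Subgroup G, (∃ hTH : T ≤ H, H.Normal ∧ (∃ R : Sylow p H, (R : Subgroup H) = T.subgroupOf H) ∧
        ∀ P : Subgroup G, E.Hom P = (fusionSystemOfSubgroup H T hTH).Hom P) ∧
      ∀ H' : Subgroup G, (∃ hTH' : T ≤ H', H'.Normal ∧ (∃ R : Sylow p H', (R : Subgroup H') = T.subgroupOf H') ∧
        ∀ P : Subgroup G, E.Hom P = (fusionSystemOfSubgroup H' T hTH').Hom P) → H' = H := by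
  have hNC : NC S T (pCore p G) E :=
    { ns_of_isNormalIn S hTS hE with
      Qn := Cfsg.Agent.Lib.Basic.pCore_normal p
      QS := Cfsg.Agent.Lib.Basic.pCore_le_sylow S
      Qc := hG
      Qmax := fun _ hN hP => Cfsg.Agent.Lib.Basic.le_pCore hN hP }
  obtain ⟨H, hH⟩ := hNC.exists_H
  refine ⟨H, ⟨hH.T_le, hH.normal, hH.sylowIn, fun P => Set.Subset.antisymm hH.E_le hH.le_E⟩, ?_⟩
  rintro H' ⟨hTH', hn, hsyl, hE'⟩
  exact hH.unique hTH' hn hsyl hE'

end Cfsg.Agent.Lib.Fusion2.NormConstr
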